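import Mathlib
import Cfsg.Agent.Class.Orth.TypeCount
import Cfsg.Agent.Class.FinFieldExt
import Cfsg.Agent.Class.U.Count

/-!
The hermitian norm as a quadratic form over the fixed field: `GU_m(q) ≤ O^ε_{2m}(q)`,
`ε = (-)^m`.
-/

set_option autoImplicit false

namespace Cfsg.Agent.Class.Orth

open QuadraticMap Module

theorem exists_normQF {K F : Type*} [Field K] [Fintype K] [Field F] [Fintype F] [Algebra F K]
    {q : ℕ} (hK : Fintype.card K = q ^ 2) (hF : Fintype.card F = q) (m : ℕ) :
    ∃ Q : QuadraticForm F (Fin m → K), (∀ v, algebraMap F K (Q v) = hermForm m K q v v) ∧ ND Q ∧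
      finrank F (Fin m → K) = 2 * m ∧ (QF.IsPlus Q ↔ Even m) := by
  have hU := U.UF.of_card hK
  obtain ⟨r, hr⟩ := FinExt.exists_retraction (F := F) (K := K)
  have hσ : ∀ a : F, U.conj K q (algebraMap F K a) = algebraMap F K a := fun a => by
    rw [U.conj_apply, ← hF]; exact FinExt.algebraMap_pow_card a
  have hsm : ∀ (a : F) (v : Fin m → K), a • v = algebraMap F K a • v := fun a v =>
    (algebraMap_smul K a v).symm
  let B : LinearMap.BilinForm F (Fin m → K) := LinearMap.mk₂ F (fun u v => r (hermForm m K q u v))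
    (fun u u' v => by rw [U.herm_add_left, map_add])
    (fun a u v => by rw [hsm, U.herm_smul_left, ← Algebra.smul_def, map_smul])
    (fun u v v' => by rw [U.herm_add_right, map_add])
    (fun a u v => by rw [hsm, U.herm_smul_right, hσ, ← Algebra.smul_def, map_smul])
  have hfix : ∀ x : K, U.conj K q x = x → algebraMap F K (r x) = x := fun x hx => by
    obtain ⟨a, rfl⟩ := (FinExt.mem_range_algebraMap_iff (F := F) x).2 (by rw [hF]; exact hx)
    rw [hr]
  have hQ : ∀ v, algebraMap F K (B.toQuadraticMap v) = hermForm m K q v v := fun v =>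
    hfix _ (U.herm_conj v v)
  have hnd : ND B.toQuadraticMap := by
    intro x hx
    by_contra h0
    obtain ⟨y, hy⟩ := U.exists_herm_ne_zero (q := q) h0
    obtain ⟨t, ht⟩ := U.exists_trace_ne_zero K q
    have h1 := congrArg (algebraMap F K) (hx ((t / hermForm m K q y x) • y))
    simp only [polar, map_sub, hQ, U.herm_add_left, U.herm_add_right, map_zero] at h1
    have h3 : hermForm m K q ((t / hermForm m K q y x) • y) x = t := by
      rw [U.herm_smul_left, div_mul_cancel₀ _ (U.herm_comm_ne hy)]
    have h4 := U.herm_conj (q := q) ((t / hermForm m K q y x) • y) x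
    rw [h3] at h4
    rw [h3, ← h4] at h1
    exact ht (by linear_combination h1)
  have hd : finrank F (Fin m → K) = 2 * m := by
    rw [finrank_pi_fintype, FinExt.finrank_eq_of_card (m := 2) (by rw [hK, hF])]
    simp [mul_comm]
  refine ⟨B.toQuadraticMap, hQ, hnd, hd, ?_⟩
  have h1 := U.card_norm_supp_zero (n := m) (F := K) (q := q) Finset.univ
  simp only [Finset.mem_univ, not_true, IsEmpty.forall_iff, implies_true, true_and,
    Finset.card_univ, Fintype.card_fin] at h1
  have h3 : Nat.card {v // B.toQuadraticMap v = 0} = Nat.card {v // hermForm m K q v v = 0} :=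
    Nat.card_congr (Equiv.subtypeEquivRight fun v => by rw [← hQ, map_eq_zero (algebraMap F K)])
  have h4 := pow_mul_sub_one_pos (F := F) m
  rw [hnd.isPlus_iff_card hd, h3]
  rw [Nat.card_eq_fintype_card (α := F), hF] at h4 ⊢
  rw [h1, mul_assoc]
  rcases Nat.even_or_odd m with h | h
  · rw [h.neg_one_pow]; exact iff_of_true (by omega) h
  · rw [h.neg_one_pow]; exact iff_of_false (by omega) (Nat.not_even_iff_odd.2 h)

theorem exists_GU_embedding {K F : Type*} [Field K] [Field F] [Algebra F K] {q m : ℕ}
    (Q : QuadraticForm F (Fin m → K)) (hQ : ∀ v, algebraMap F K (Q v) = hermForm m K q v v) :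
    ∃ φ : GU m K q →* OG Q, Function.Injective φ ∧ ∀ g v, (φ g).1 v = g • v := by
  refine ⟨{ toFun := fun g => ⟨(glEquiv (Fin m) K g.1).restrictScalars F, fun v =>
              (algebraMap F K).injective (by rw [hQ, hQ]; exact U.GU_herm g v v)⟩
            map_one' := OG.ext fun v => one_smul (GU m K q) v
            map_mul' := fun g h => OG.ext fun v => mul_smul g h v }, ?_, fun _ _ => rfl⟩
  intro g h hgh
  exact U.GU_ext fun v => congrArg (fun k : OG Q => k.1 v) hgh

end Cfsg.Agent.Class.Orth
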